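import Mathlib
import Cfsg.Agent.Gr.Am.Lat
import Cfsg.Agent.Gr.Am.Cnt
import Cfsg.Agent.J4T.HypB
import Cfsg.Agent.Spor.FL.Grp
import Cfsg.Agent.Std.Co0F

/-! A 2-subgroup of the Conway group normalised by an element of order 23 is the group of sign changes. -/

set_option autoImplicit false

namespace Cfsg.Agent.Gr.Am

open Cfsg.Agent.Spor Cfsg.Agent.Spor.Leech Cfsg.Agent.Gr.Rk Subgroup

attribute [local irreducible] sgC cls twoC csm perm negOne pc Sh

theorem finite_Co0 : Finite Co0 := Nat.finite_of_card_ne_zero (by rw [card_Co0]; norm_num)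

theorem exists_mark {g : Co0} (h : g ^ 23 = 1) (h1 : g ≠ 1) : ∃ (k : Co0) (i : ℕ), k * Sh * k⁻¹ = g ^ i := by
  have := finite_Co0
  have : Fact (Nat.Prime 23) := ⟨by norm_num⟩
  obtain ⟨k, hk⟩ := FL.exists_conj_le (p := 23) (H := zpowers g) (Q := zpowers Sh) (by
    have := (zpowers g).card_mul_index
    rw [Nat.card_zpowers, orderOf_eq_prime h h1, card_Co0] at this
    omega) (IsPGroup.of_card (n := 1) (by rw [Nat.card_zpowers, orderOf_eq_prime Sh_23 Sh_ne, pow_one]))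
  obtain ⟨i, hi⟩ := mem_powers_iff_mem_zpowers.2 (hk _ (mem_zpowers _))
  exact ⟨k, i, hi.symm⟩

theorem mem_Z {a : Co0} : a ∈ zpowers negOne ↔ a = 1 ∨ a = negOne := mem_zpowers_iff_of_sq negOne_mul_self

theorem card_Z : Nat.card (zpowers negOne) = 2 := card_zpowers_of_sq negOne_ne_one negOne_mul_self

theorem Z_comm {a : Co0} (h : a ∈ zpowers negOne) (b : Co0) : b * a = a * b := by
  rcases mem_Z.1 h with rfl | rfl
  · rw [mul_one, one_mul]
  · exact negOne_comm b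

variable {E Y : Subgroup Co0}

theorem dich (h2 : IsPGroup 2 E) (neg : negOne ∈ E) (hS : ∀ a ∈ E, Sh * a * Sh⁻¹ ∈ E) :
    E ≤ zpowers negOne ∨ Nat.card E = 2 ^ 12 := by
  have := finite_Co0
  have : Fact (Nat.Prime 23) := ⟨by norm_num⟩
  obtain ⟨n, hn⟩ := IsPGroup.iff_card.1 h2
  have hZ : zpowers negOne ≤ E := zpowers_le.2 neg
  have h1 := relIndex_modEq (p := 23) (fun h => absurd (Nat.Prime.dvd_of_dvd_pow this.out (hn ▸ h)) (by norm_num))
    Sh_23 hZ hS (fun s h => by rwa [Z_comm h, mul_inv_cancel_right]) fun s h k => by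
      obtain ⟨m, hm⟩ := h2 ⟨s, h⟩
      exact mem_Z.2 (cent23 k.symm (congrArg Subtype.val hm))
  have h3 : Nat.card (zpowers negOne) * (zpowers negOne).relIndex E = Nat.card E := by
    rw [← relIndex_bot_left, ← relIndex_bot_left, relIndex_mul_relIndex _ _ _ bot_le hZ]
  have h4 : n ≤ 22 := by
    by_contra h
    have := (pow_dvd_pow 2 (show 23 ≤ n by omega)).trans (hn ▸ card_Co0 ▸ E.card_subgroup_dvd_card)
    omega
  rw [card_Z, hn] at h3
  have : (zpowers negOne).relIndex E = 1 ∨ n = 12 := by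
    unfold Nat.ModEq at h1
    interval_cases n <;> omega
  exact this.imp relIndex_eq_one.1 fun h => by rw [hn, h]

theorem dich' (h2 : IsPGroup 2 E) (hc : Nat.card E = 2 ^ 12) {A : Subgroup Co0} (hA : A ≤ E) (neg : negOne ∈ A)
    (hS : ∀ a ∈ A, Sh * a * Sh⁻¹ ∈ A) : A ≤ zpowers negOne ∨ E ≤ A :=
  have := finite_Co0
  (dich (h2.to_le hA) neg hS).imp id fun h => (eq_of_le_of_card_ge hA (hc.trans h.symm).le).ge

theorem elem (h2 : IsPGroup 2 E) (hc : Nat.card E = 2 ^ 12) (neg : negOne ∈ E)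
    (hS : ∀ a ∈ E, Sh * a * Sh⁻¹ ∈ E) (hS' : ∀ a ∈ E, Sh⁻¹ * a * Sh ∈ E) : ∀ a ∈ E, a * a = 1 := by
  have := finite_Co0
  have hn : ¬ E ≤ zpowers negOne := fun h => by
    have := card_le_of_le h
    rw [hc, card_Z] at this
    omega
  have pz : ∀ {a}, MT.pr a = 1 ↔ a ∈ zpowers negOne := MT.pr_eq_one_iff.trans mem_Z.symm
  have zc : ∀ {a}, a ∈ zpowers negOne → Sh * a * Sh⁻¹ ∈ zpowers negOne := fun h => by
    rwa [Z_comm h, mul_inv_cancel_right]
  have nz : negOne ∈ zpowers negOne := mem_zpowers _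
  have h1 : ∀ a ∈ E, a * a ∈ zpowers negOne ∧ ∀ b ∈ E, a * b * a⁻¹ * b⁻¹ ∈ zpowers negOne := by
    let A : Subgroup Co0 :=
      { carrier := {a | a ∈ E ∧ MT.pr a * MT.pr a = 1 ∧ ∀ b ∈ E, Commute (MT.pr a) (MT.pr b)}
        one_mem' := ⟨one_mem _, by simp, by simp⟩
        mul_mem' := fun {a b} h k => ⟨mul_mem h.1 k.1, by
          rw [map_mul, (h.2.2 b k.1).symm.mul_mul_mul_comm, h.2.1, k.2.1, one_mul],
          fun c hc => map_mul MT.pr a b ▸ (h.2.2 c hc).mul_left (k.2.2 c hc)⟩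
        inv_mem' := fun {a} h => ⟨inv_mem h.1, by rw [map_inv, ← mul_inv_rev, h.2.1, inv_one],
          fun c hc => map_inv MT.pr a ▸ (h.2.2 c hc).inv_left⟩ }
    have : Finite (E.map MT.pr) := Finite.of_surjective _ (MT.pr.subgroupMap_surjective E)
    have : Nontrivial (E.map MT.pr) := (nontrivial_iff_ne_bot _).2 fun h =>
      hn fun a ha => pz.1 (mem_bot.1 (h ▸ mem_map_of_mem _ ha))
    have h3 := h2.map MT.pr
    have := h3.center_nontrivial
    obtain ⟨n, h4, h5⟩ := (h3.to_subgroup (center _)).nontrivial_iff_card.1 this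
    obtain ⟨⟨⟨_, a, ha, rfl⟩, h6⟩, h7⟩ := exists_prime_orderOf_dvd_card' (G := center (E.map MT.pr)) 2
      (h5 ▸ dvd_pow_self 2 h4.ne')
    obtain ⟨h8, h9⟩ := orderOf_eq_two_iff'.1 h7
    have hA := (dich' h2 hc (A := A) (fun _ h => h.1) ⟨neg, by simp [pz.2 nz], by simp [pz.2 nz]⟩
      fun a h => ⟨hS a h.1, by
        simp only [map_mul, map_inv]; rw [conj_mul, h.2.1, mul_one, mul_inv_cancel], fun b hb => by
        have := (h.2.2 _ (hS' b hb)).conj (MT.pr Sh)
        simpa [mul_assoc] using this⟩).resolve_left fun h => h8 (Subtype.ext (Subtype.ext (pz.2 (h ⟨ha,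
          congrArg (fun t => t.1.1) h9, fun b hb =>
            (congrArg Subtype.val (mem_center_iff.1 h6 ⟨_, mem_map_of_mem _ hb⟩)).symm⟩))))
    exact fun a ha => ⟨pz.1 (by rw [map_mul, (hA ha).2.1]), fun b hb => pz.1 (by
      simp only [map_mul, map_inv]; rw [((hA ha).2.2 b hb).eq]; group)⟩
  have h3 : ∀ a ∈ E, ∀ b ∈ E, a * b = b * a := by
    rcases dich' h2 hc (A := E ⊓ centralizer E) inf_le_left ⟨neg, fun b _ => negOne_comm b⟩
      (fun a h => ⟨hS a h.1, fun b hb => by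
        have := h.2 _ (hS' b hb)
        calc _ = Sh * (Sh⁻¹ * b * Sh * a) * Sh⁻¹ := by group
          _ = _ := by rw [this]; group⟩) with h | h
    · have hE : ES2 E negOne := ⟨neg, negOne_ne_one, negOne_mul_self, fun q _ => (negOne_comm q).symm,
        fun x hx y hy => (mem_Z.1 ((h1 x hx).2 y hy)).imp (fun k => by
          rwa [mul_inv_eq_one, mul_inv_eq_iff_eq_mul] at k) fun k => by
          rwa [mul_inv_eq_iff_eq_mul, mul_inv_eq_iff_eq_mul, mul_assoc] at k,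
        fun x hx k => mem_Z.1 (h ⟨hx, fun b hb => (k b hb).symm⟩), by
          by_contra! k
          exact hn fun a ha => h ⟨ha, fun b hb => k b hb a ha⟩⟩
      have := J4T.HypB.sq_count hE
      rw [hc] at this
      generalize (2 * ({x | x ∈ E ∧ x * x = 1}.ncard : ℤ) - ((2 ^ 12 : ℕ) : ℤ)) = t at this
      push_cast at this
      have h1 : |t| ≤ 90 ∨ 91 ≤ |t| := by omega
      rw [← sq_abs] at this
      rcases h1 with h1 | h1 <;> nlinarith [abs_nonneg t]
    · exact fun a ha b hb => (h hb).2 a ha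
  let B : Subgroup Co0 :=
    { carrier := {a | a ∈ E ∧ a * a = 1}
      one_mem' := ⟨one_mem _, one_mul _⟩
      mul_mem' := fun {a b} h k => ⟨mul_mem h.1 k.1, by
        rw [(show Commute b a from h3 b k.1 a h.1).mul_mul_mul_comm, h.2, k.2, one_mul]⟩
      inv_mem' := fun {a} h => ⟨inv_mem h.1, by rw [← mul_inv_rev, h.2, inv_one]⟩ }
  rcases dich' h2 hc (A := B) (fun _ h => h.1) ⟨neg, negOne_mul_self⟩
    (fun a h => ⟨hS a h.1, by rw [conj_mul, h.2, mul_one, mul_inv_cancel]⟩) with h | h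
  · obtain ⟨a, ha, h4⟩ := SetLike.not_le_iff_exists.1 hn
    have h5 : ∀ b ∈ E, b ∉ zpowers negOne → b * b = negOne := fun b hb k =>
      (mem_Z.1 (h1 b hb).1).resolve_left fun e => k (h ⟨hb, e⟩)
    have := card_le_two_mul (zpowers_le.2 neg) ha fun b hb => or_iff_not_imp_right.2 fun k =>
      h ⟨mul_mem hb ha, by rw [(show Commute a b from h3 a ha b hb).mul_mul_mul_comm, h5 a ha h4, h5 b hb k,
        negOne_mul_self]⟩
    rw [hc, card_Z] at this
    omega
  · exact fun a ha => (h ha).2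

theorem mon_of_norm (h2 : IsPGroup 2 E) (neg : negOne ∈ E) (hS : Sh ∈ Y)
    (nrm : ∀ k ∈ Y, ∀ a ∈ E, k * a * k⁻¹ ∈ E) (hEY : E ≤ Y) (hn : ¬ E ≤ zpowers negOne) :
    E = MT.Sgn ∧ Y ≤ Mon := by
  have := finite_Co0
  have : Fact (Nat.Prime 23) := ⟨by norm_num⟩
  have hc := (dich h2 neg (nrm _ hS)).resolve_left hn
  have sq := elem h2 hc neg (nrm _ hS) fun a h => by simpa using nrm _ (inv_mem hS) a h
  obtain ⟨h, hh, h1, h3, h4, h5⟩ : ∃ h ∈ E, h ≠ 1 ∧ h ≠ negOne ∧ tr h ≠ 8 ∧ tr h ≠ -8 := by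
    by_contra! k
    have := card_lt sq neg fun h hh => by have := k h hh; tauto
    omega
  obtain ⟨k, d, hd⟩ := exists_conj_sgC (sq h hh)
  have h6 : wt (wd d) = 12 := by
    have e := tr_conj k h
    rw [hd, tr_sgC] at e
    have n1 : ¬ D0 d := fun t => by
      have := mem_Z.2 (sgC_pm.2 t)
      rw [← hd] at this
      have := mem_Z.1 (show h ∈ zpowers negOne by
        rwa [show h = k⁻¹ * (k * h * k⁻¹) * k by group, Z_comm this, inv_mul_cancel_right])
      tauto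
    rcases wt_wd d with t | t | t | t | t
    · exact (n1 (Or.inl (wt_wd_eq_zero.1 t))).elim
    · exact (h4 (by rw [← e, t]; norm_num)).elim
    · exact t
    · exact (h5 (by rw [← e, t]; norm_num)).elim
    · exact (n1 (Or.inr (wt_wd_eq_24.1 t))).elim
  let W : AddSubgroup LL :=
    { carrier := {w | qL w = 0 ∧ ∀ a ∈ E, csm a w = w}
      zero_mem' := ⟨by simp [qL], fun a _ => csm_zero a⟩
      add_mem' := fun {a b} ha hb => ⟨by
        have v : ∀ w, qL w = 0 → csm h w = w → V12 (csm k w) := fun w p q =>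
          v12_of_fix h6 (by rw [← hd, csm_conj, q]) (by rw [qL_csm, p])
        rw [qL_add, ha.1, hb.1, ← pol_csm k, (v a ha.1 (ha.2 h hh)).pol (v b hb.1 (hb.2 h hh))]; rfl,
        fun g hg => by rw [csm_add, ha.2 g hg, hb.2 g hg]⟩
      neg_mem' := fun {a} ha => (ll_neg a).symm ▸ ha }
  have h7 := St.card_le (H := E) (W := W) (v := 0) ⟨sq, neg, fun w hw => hw.1, W.zero_mem, Or.inl rfl,
    fun g hg w hw => Or.inl (by rw [hw.2 g hg, ll_add_self])⟩
  have h8 : ∀ m ∈ Y, ∀ w ∈ W, csm m w ∈ W := fun m hm w hw => ⟨by rw [qL_csm, hw.1], fun a ha => by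
    rw [show a = m * (m⁻¹ * a * m⁻¹⁻¹) * m⁻¹ by group, csm_conj, hw.2 _ (nrm _ (inv_mem hm) a ha)]⟩
  have h9 : csm k⁻¹ v0 ∈ W := ⟨by rw [qL_csm, t0_v0.v12.qL], fun a ha => by
    rw [show a = k⁻¹ * (k * a * k⁻¹) * k⁻¹⁻¹ by group, csm_conj, csm_v0 (mem_Mon_of_comm h6 (by
      rw [← hd, conj_mul, conj_mul, Rk.comm_of_sq sq ha hh]))]⟩
  have h10 : ∀ w ∈ W, csm Sh w = w := by
    let f : W → W := fun w => ⟨csm Sh w, h8 _ hS _ w.2⟩
    have e : ∀ (n : ℕ) (w : W), (f^[n] w : LL) = csm (Sh ^ n) w := fun n w => by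
      induction n with
      | zero => simp [csm_one]
      | succ n ih => rw [Function.iterate_succ_apply', pow_succ', csm_mul, ← ih]
    have e1 := card_fix (p := 23) f fun w => Subtype.ext (by rw [e, Sh_23, csm_one])
    have e2 := Finite.card_subtype_le fun a => f a = a
    rw [hc] at h7
    have := (Subtype.val_injective (p := fun a => f a = a)).bijective_of_nat_card_le (by
      unfold Nat.ModEq at e1; omega)
    intro w hw
    obtain ⟨a, ha⟩ := this.2 ⟨w, hw⟩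
    exact congrArg Subtype.val (ha ▸ a.2)
  have h11 : Y ≤ Mon := fun m hm => mem_Mon_of_csm (by
    have e := fix4 (k := m * k⁻¹) (by rw [csm_mul m]; exact h10 _ (h8 m hm _ h9))
    rwa [csm_mul, fix4 (h10 _ h9)] at e)
  refine ⟨eq_of_le_of_card_ge ?_ (by rw [hc, MT.card_Sgn]; norm_num), h11⟩
  refine le_trans ((dich' h2 hc (A := E ⊓ MT.Sgn) inf_le_left ⟨neg, MT.negOne_mem_Sgn⟩
    fun a h => ⟨nrm _ hS _ h.1, MT.conj_mem_Sgn Sh_mem h.2⟩).resolve_left fun t => ?_) inf_le_right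
  have : (MT.Sgn.subgroupOf Mon).Normal := ⟨fun a ha g => MT.conj_mem_Sgn g.2 ha⟩
  have e1 := relIndex_dvd_index_of_normal (MT.Sgn.subgroupOf Mon) (E.subgroupOf Mon)
  have e2 := (MT.Sgn.subgroupOf Mon).card_mul_index
  rw [Nat.card_congr (subgroupOfEquivOfLe MT.Sgn_le_Mon).toEquiv, MT.card_Sgn, card_Mon] at e2
  have e3 := relIndex_mul_relIndex ⊥ _ E bot_le (zpowers_le.2 neg)
  rw [relIndex_bot_left, relIndex_bot_left, card_Z, hc] at e3
  rw [relIndex_subgroupOf (hEY.trans h11), ← inf_relIndex_right, inf_comm,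
    le_antisymm t (zpowers_le.2 ⟨neg, MT.negOne_mem_Sgn⟩), show (zpowers negOne).relIndex E = 2 ^ 11 by omega,
    show (MT.Sgn.subgroupOf Mon).index = 244823040 by omega] at e1
  omega

end Cfsg.Agent.Gr.Am
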