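import Mathlib
import Cfsg.Agent.Gr.Am.DegA
import Cfsg.Agent.Gr.Am.Rig

/-! The second member of the amalgam is the normaliser of a four-group of the standard kind. -/

set_option autoImplicit false

namespace Cfsg.Agent.Gr.Am

open Cfsg.Agent.Spor Cfsg.Agent.Spor.Leech Cfsg.Agent.Gr.Rk Subgroup

attribute [local irreducible] sgC cls twoC csm perm negOne pc Sh

variable {G : Type*} [Group G]

/-- The structure of `N`: `H = C ⊓ N`, `K` and `R` are the kernels on `S₃` and on `S₃ × M₂₄`, `S = O₂(H)`. -/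
structure ND (C H K R S : Subgroup G) (x y : G) : Prop where
  HC : H ≤ C
  fin : Finite H
  ix : Ix2 H K
  SH : S ≤ H
  memR : ∀ {r}, r ∈ R ↔ r ∈ S ∧ r ∈ K
  exu : ∃ u ∈ S, u ∉ K
  two : IsPGroup 2 S
  nrm : ∀ h ∈ H, ∀ r ∈ S, h * r * h⁻¹ ∈ S
  idx : S.relIndex H = 244823040
  core : ∀ A ≤ H, IsPGroup 2 A → (∀ h ∈ H, ∀ a ∈ A, h * a * h⁻¹ ∈ A) → A ≤ S
  x3 : x * x * x = 1
  y23 : y ^ 23 = 1
  yK : y ∈ K
  xy : x * y = y * x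
  xK : ∀ h ∈ K, x * h * x⁻¹ * h⁻¹ ∈ R
  xu : ∀ u ∈ H, u ∉ K → x * u * (x * u) ∈ K
  nc : ¬ ∀ r ∈ R, r * x = x * r

variable {C H K R S : Subgroup G} {x y : G} {Γ : Subgroup (G × Co0)} {P : ZMod 2 → LL → G}

namespace ND

section
variable (D : ND C H K R S x y)
include D

theorem RK : R ≤ K := fun _ h => (D.memR.1 h).2
theorem RH : R ≤ H := D.RK.trans D.ix.le
theorem xinv : x⁻¹ = x * x := inv_eq_of_mul_eq_one_left D.x3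
theorem conjK {h : G} (t : h ∈ K) : x * h * x⁻¹ ∈ K := (mul_mem_cancel_right (inv_mem t)).1 (D.RK (D.xK h t))
theorem conjR {h : G} (t : h ∈ R) : x * h * x⁻¹ ∈ R := (mul_mem_cancel_right (inv_mem t)).1 (D.xK h (D.RK t))

theorem nrmR {h r : G} (t : h ∈ H) (u : r ∈ R) : h * r * h⁻¹ ∈ R :=
  D.memR.2 ⟨D.nrm h t r (D.memR.1 u).1, (D.ix.conj_iff t (D.RH u)).2 (D.RK u)⟩

theorem cube (h : G) : x * (x * (x * h * x⁻¹) * x⁻¹) * x⁻¹ = h := by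
  calc _ = x * x * x * h * (x * x * x)⁻¹ := by group
    _ = h := by rw [D.x3, one_mul, inv_one, mul_one]

theorem inv_conj (h : G) : x⁻¹ * h * x⁻¹⁻¹ = x * (x * h * x⁻¹) * x⁻¹ := by
  calc _ = x⁻¹ * (x * (x * (x * h * x⁻¹) * x⁻¹) * x⁻¹) * x⁻¹⁻¹ := by rw [D.cube]
    _ = _ := by group

theorem inv : ND C H K R S x⁻¹ y :=
  { D with
    x3 := by rw [← mul_inv_rev, ← mul_inv_rev, ← mul_assoc, D.x3, inv_one]
    xy := (show Commute x y from D.xy).inv_left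
    xK := fun h t => by
      rw [D.inv_conj]; simpa [mul_assoc] using mul_mem (D.xK _ (D.conjK t)) (D.xK h t)
    xu := fun u t v => by
      have := D.conjK (D.conjK (inv_mem (D.xu u⁻¹ (inv_mem t) (mt inv_mem_iff.1 v))))
      rw [← D.inv_conj] at this
      simpa [mul_assoc] using this
    nc := fun t => D.nc fun r u => Commute.inv_right_iff.1 (t r u) }

theorem pow (i : ℕ) : ND C H K R S x (y ^ i) :=
  { D with
    y23 := by rw [← pow_mul, mul_comm, pow_mul, D.y23, one_pow]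
    yK := pow_mem D.yK i
    xy := (show Commute x y from D.xy).pow_right i }

theorem step {A B : Subgroup G} (h1 : A ≤ R) (h2 : B ≤ A) (hi : B.relIndex A = 2 ^ 11)
    (h3 : ∀ s ∈ A, x * s * x⁻¹ ∈ A) (h4 : ∀ s ∈ A, y * s * y⁻¹ ∈ A) (h5 : ∀ s ∈ B, y * s * y⁻¹ ∈ B)
    (h6 : ∀ s ∈ A, s * y = y * s → s ∈ B) (h7 : ∀ s ∈ B, s * x = x * s) : ∀ s ∈ A, s * x = x * s :=
  have := D.fin
  have : Finite A := Finite.of_injective _ (inclusion_injective (h1.trans D.RH))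
  cent_step (D.two.to_le (h1.trans fun _ h => (D.memR.1 h).1)) h2 hi (by rw [pow_three', D.x3]) D.y23 D.xy
    h3 h4 h5 h6 h7

theorem fix_of_sq {v : G} (h : x * (x * v * x⁻¹) * x⁻¹ = v) : x * v * x⁻¹ = v := by
  conv_lhs => rw [← h]
  exact D.cube v

end

variable (F : Fr Γ P) (D : ND (pre Γ ⊤) H K R S x y)
include F D

theorem ov {h : G} (t : h ∈ H) : ∃ g, (h, g) ∈ Γ := let ⟨g, _, u⟩ := D.HC t; ⟨g, u⟩

theorem P_S {e : ZMod 2} {a : LL} (t : P e a ∈ H) : P e a ∈ S :=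
  D.core (H ⊓ F.lf ⊤) inf_le_left (fun ⟨_, _, e, a, _, u⟩ => ⟨2, Subtype.ext (u ▸ F.pow_four e a)⟩)
    (fun h hh a ha => ⟨H.mul_mem (H.mul_mem hh ha.1) (H.inv_mem hh),
      let ⟨_, u⟩ := D.ov F hh; F.conj_lf (fun _ _ => trivial) u ha.2⟩) ⟨t, F.mem_lf.2 trivial⟩

theorem P_R {e : ZMod 2} {a : LL} (t : P e a ∈ K) : P e a ∈ R := D.memR.2 ⟨D.P_S F (D.ix.le t), t⟩

theorem img_eq (hy : (y, Sh) ∈ Γ) (L1 : ¬ ∀ r ∈ S, (r, 1) ∈ Γ) : img Γ S = MT.Sgn ∧ img Γ H = Mon := by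
  have := finite_Co0
  obtain ⟨h1, h2⟩ := mon_of_norm (E := img Γ S) (Y := img Γ H) (fun ⟨a, r, hr, t⟩ => by
      obtain ⟨k, hk⟩ := D.two ⟨r, hr⟩
      have := Γ.pow_mem t (2 ^ k)
      rw [Prod.pow_mk, show r ^ 2 ^ k = 1 from congrArg Subtype.val hk] at this
      refine ⟨k + 1, Subtype.ext ?_⟩
      change a ^ 2 ^ (k + 1) = 1
      rw [pow_succ, pow_mul]
      rcases F.pm_of_one this with u | u <;> rw [u]
      exacts [one_pow 2, (pow_two _).trans negOne_mul_self])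
    ⟨1, one_mem _, F.neg⟩ ⟨y, D.ix.le D.yK, hy⟩
    (fun k ⟨h, hh, t⟩ a ⟨r, hr, u⟩ => ⟨_, D.nrm h hh r hr, conj_mem' t u⟩)
    (fun a ⟨r, hr, u⟩ => ⟨r, D.SH hr, u⟩) fun t => L1 fun r hr => by
      obtain ⟨g, u⟩ := D.ov F (D.SH hr)
      obtain ⟨e, a, rfl⟩ := F.ker' u (mem_Z.1 (t ⟨r, hr, u⟩))
      exact F.mem e a
  refine ⟨h1, eq_of_le_of_card_ge h2 ?_⟩
  have h3 : (img Γ S).relIndex (img Γ H) = S.relIndex H := relIndex_eq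
    (fun k (b : H ⧸ S.subgroupOf H) => ∃ h : H, (h.1, k) ∈ Γ ∧ b = h) (fun k ⟨h, hh, t⟩ => ⟨_, ⟨h, hh⟩, t, rfl⟩)
    (fun b => by
      obtain ⟨h, rfl⟩ := QuotientGroup.mk_surjective b
      obtain ⟨g, t⟩ := D.ov F h.2
      exact ⟨g, ⟨h, h.2, t⟩, h, t, rfl⟩) (by
    rintro a - a' - _ _ ⟨h, t, rfl⟩ ⟨h', t', rfl⟩
    have := Γ.mul_mem (Γ.inv_mem t) t'
    rw [QuotientGroup.eq]
    refine ⟨fun u => ⟨_, u, this⟩, fun ⟨r, hr, u⟩ => ?_⟩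
    obtain ⟨e, w, v⟩ := F.eq_mul u this
    have v : (h⁻¹ * h').1 = r * P e w := v
    exact mem_subgroupOf.2 (v ▸ mul_mem hr (D.P_S F ((mul_mem_cancel_left (D.SH hr)).1 (v ▸ (h⁻¹ * h').2)))))
  have h4 := relIndex_mul_relIndex ⊥ (img Γ S) (img Γ H) bot_le fun a ⟨r, hr, u⟩ => ⟨r, D.SH hr, u⟩
  rw [relIndex_bot_left, relIndex_bot_left, h3, h1, D.idx, MT.card_Sgn] at h4
  rw [card_Mon, h4]

variable (hS : img Γ S = MT.Sgn) (hH : img Γ H = Mon)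
include hS hH

theorem exists_R (d : Cd) : ∃ r ∈ R, (r, sgC d) ∈ Γ := by
  refine sgn_perf (B := img Γ R) (fun a b h1 h2 => ?_) (fun σ a ⟨r, hr, t⟩ => ?_) d
  · obtain ⟨r, hr, t⟩ : sgC a ∈ img Γ S := hS ▸ mem_Sgn.2 ⟨a, rfl⟩
    obtain ⟨r', hr', t'⟩ : sgC b ∈ img Γ S := hS ▸ mem_Sgn.2 ⟨b, rfl⟩
    exact ⟨_, D.memR.2 ⟨mul_mem hr hr', D.ix.mul _ (D.SH hr) _ (D.SH hr') (fun u => h1 ⟨r, D.memR.2 ⟨hr, u⟩, t⟩)
      fun u => h2 ⟨r', D.memR.2 ⟨hr', u⟩, t'⟩⟩, Γ.mul_mem t t'⟩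
  · obtain ⟨h, hh, u⟩ : _ ∈ img Γ H := hH ▸ mon_mem 0 σ
    exact ⟨_, D.nrmR hh hr, mon_conj 0 a σ ▸ conj_mem' u t⟩

omit hH in
theorem ov_S {r : G} (hr : r ∈ S) : ∃ d, (r, sgC d) ∈ Γ := by
  obtain ⟨g, t⟩ := D.ov F (D.SH hr)
  obtain ⟨d, rfl⟩ := mem_Sgn.1 (hS ▸ ⟨r, hr, t⟩ : g ∈ MT.Sgn)
  exact ⟨d, t⟩

theorem exists_u : ∃ e a, P e a ∈ H ∧ P e a ∉ K := by
  obtain ⟨u, h1, h2⟩ := D.exu
  obtain ⟨d, t⟩ := D.ov_S F hS h1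
  obtain ⟨r, hr, v⟩ := D.exists_R F hS hH d
  obtain ⟨e, a, rfl⟩ := F.eq_mul v t
  exact ⟨e, a, (mul_mem_cancel_left (D.RH hr)).1 (D.SH h1), fun w => h2 (mul_mem (D.RK hr) w)⟩

theorem exists_K {g : Co0} (hg : g ∈ Mon) : ∃ h ∈ K, (h, g) ∈ Γ := by
  obtain ⟨h, hh, t⟩ : g ∈ img Γ H := hH ▸ hg
  obtain ⟨e, a, h1, h2⟩ := D.exists_u F hS hH
  by_cases u : h ∈ K
  · exact ⟨h, u, t⟩
  · exact ⟨_, D.ix.mul _ hh _ h1 u h2, by simpa using Γ.mul_mem t (F.mem e a)⟩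

theorem mi {A : Subgroup G} (hA : ∀ h ∈ K, ∀ a ∈ A, h * a * h⁻¹ ∈ A) : MI fun w => ∃ e, P e w ∈ A :=
  ⟨⟨0, F.zero ▸ one_mem _⟩, fun a b ⟨e, h⟩ ⟨f, k⟩ => ⟨_, F.mul _ _ _ _ ▸ mul_mem h k⟩, fun g hg a ⟨e, h⟩ => by
    obtain ⟨c, hc, t⟩ := D.exists_K F hS hH hg
    obtain ⟨f, u⟩ := F.act _ _ t e a
    exact ⟨f, u ▸ hA c hc _ h⟩⟩

theorem idxR {U : AddSubgroup LL} (hU : ∀ e a, P e a ∈ R → a ∈ U) : (R ⊓ F.lf U).relIndex R = 2 ^ 11 := by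
  rw [← card_quot]
  refine relIndex_eq (fun r (b : Cd ⧸ D0S) => ∃ d, (r, sgC d) ∈ Γ ∧ b = d)
    (fun r hr => let ⟨d, t⟩ := D.ov_S F hS (D.memR.1 hr).1; ⟨_, d, t, rfl⟩) (fun b => ?_) ?_
  · obtain ⟨d, rfl⟩ := QuotientAddGroup.mk_surjective b
    obtain ⟨r, hr, t⟩ := D.exists_R F hS hH d
    exact ⟨r, hr, d, t, rfl⟩
  · rintro a ha a' ha' _ _ ⟨d, t, rfl⟩ ⟨d', t', rfl⟩
    have := Γ.mul_mem (Γ.inv_mem t) t'
    rw [Prod.inv_mk, Prod.mk_mul_mk, inv_eq_of_mul_eq_one_left (sgC_mul_self d), ← sgC_add] at this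
    have h1 := mul_mem (inv_mem ha) ha'
    rw [quot_eq, ← sgC_pm]
    refine ⟨fun u => ⟨h1, ?_⟩, fun ⟨_, e, w, _, u⟩ => F.pm_of (u ▸ this)⟩
    obtain ⟨e, w, v⟩ := F.ker' this u
    exact ⟨e, w, hU e w (v ▸ h1), v⟩

end ND

theorem idxW (F : Fr Γ P) {A : Subgroup G} (hA : ∀ a, V12 a → ∃ e, P e a ∈ A) :
    (A ⊓ F.lf T0S).relIndex (A ⊓ F.lf V12S) = 2 ^ 11 := by
  rw [← card_even]
  refine relIndex_eq (fun r (b : {φ : Cd // φ ⬝ᵥ om = 0}) => ∃ e a, V12 a ∧ r = P e a ∧ b.1 = a.2)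
    (fun r ⟨_, e, a, ha, t⟩ => ⟨⟨a.2, ha.2⟩, e, a, ha, t, rfl⟩) (fun b => ?_) ?_
  · have hb : V12 ((0, b.1) : LL) := ⟨d0_zero, b.2⟩
    obtain ⟨e, t⟩ := hA _ hb
    exact ⟨P e (0, b.1), ⟨t, F.mem_lf.2 hb⟩, e, (0, b.1), hb, rfl, rfl⟩
  · rintro _ ha _ ha' b b' ⟨e, a, h, rfl, t⟩ ⟨e', a', h', rfl, t'⟩
    rw [mem_inf, and_iff_right (A.mul_mem (A.inv_mem ha.1) ha'.1), F.inv, F.mul, F.mem_lf, Subtype.ext_iff, t, t']
    exact ⟨fun u => t0_iff.2 ⟨D0.add h.1 h'.1, by rw [Prod.snd_add, u, cd_add_self]⟩,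
      fun u => cd_eq_of_add (t0_iff.1 u).2⟩

theorem idxQ (F : Fr Γ P) : (F.lf V12S).relIndex (F.lf EvS) = 2 ^ 11 := by
  rw [← card_quot]
  refine relIndex_eq (fun r (b : Cd ⧸ D0S) => ∃ e a, Ev0 a ∧ r = P e a ∧ b = a.1)
    (fun r ⟨e, a, ha, t⟩ => ⟨_, e, a, ha, t, rfl⟩) (fun b => ?_) ?_
  · obtain ⟨d, rfl⟩ := QuotientAddGroup.mk_surjective b
    have hd : Ev0 ((d, 0) : LL) := zero_dotProduct _
    exact ⟨P 0 (d, 0), F.mem_lf.2 hd, 0, (d, 0), hd, rfl, rfl⟩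
  · rintro _ - _ - _ _ ⟨e, a, h, rfl, rfl⟩ ⟨e', a', h', rfl, rfl⟩
    rw [F.inv, F.mul, F.mem_lf, quot_eq]
    exact ⟨fun u => ⟨u, h.add h'⟩, fun u => u.1⟩

theorem Fr.y_H0 (F : Fr Γ P) (hy : (y, Sh) ∈ Γ) (h : y ^ 23 = 1) : y ∈ H0 Γ P := by
  refine mem_H0.2 ⟨⟨_, hy⟩, (comm_of_sq h (mul_inv_eq_iff_eq_mul.1 ?_)).symm⟩
  obtain ⟨ε, t⟩ := F.exists_ac hy
  calc _ = y * (y * P 1 v0 * y⁻¹) * y⁻¹ := by group
    _ = _ := by rw [t, csm_v0 Sh_mem, t, csm_v0 Sh_mem, add_assoc, z2_add_self, add_zero]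

theorem Fr.of_comm (F : Fr Γ P) (hy : (y, Sh) ∈ Γ) {r : G} {d : Cd} (t : (r, sgC d) ∈ Γ) (h : r * y = y * r) :
    ∃ e a, r = P e a ∧ (Ev0 a → T0 a) := by
  have := conj_mem' hy t
  rw [← h, mul_inv_cancel_right, Sh_sgC] at this
  obtain ⟨e, a, rfl⟩ := F.ker' t (sgC_pm.2 (fix_sh (sgC_pm.1 (F.pm_of_one (by
    rw [sgC_add]; simpa [inv_eq_of_mul_eq_one_left (sgC_mul_self d)] using Γ.mul_mem this (Γ.inv_mem t))))))
  obtain ⟨f, u⟩ := F.act _ _ hy e a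
  rw [← h, mul_inv_cancel_right] at u
  exact ⟨e, a, rfl, fun ha => t0_of_fix ha (by rw [← (F.inj u).2]; exact t0_self a)⟩

namespace ND

variable (F : Fr Γ P) (D : ND (pre Γ ⊤) H K R S x y) (hy : (y, Sh) ∈ Γ)
  (hS : img Γ S = MT.Sgn) (hH : img Γ H = Mon)
include F D

theorem cent_V {A : Subgroup G} (hA : A ≤ F.lf T0S) (h1 : ∀ v ∈ A, x * v * x⁻¹ ∈ A)
    (h2 : P 1 0 ∈ A → x * P 1 0 * x⁻¹ = P 1 0) : ∀ v ∈ A, v * x = x * v := fun v hv => by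
  refine (mul_inv_eq_iff_eq_mul.1 ?_).symm
  by_contra ne
  have h3 := h1 v hv
  have n1 : v ≠ 1 := fun e => ne (by simp [e])
  have n2 : v ≠ P 1 0 := fun e => ne (by rw [e] at hv ⊢; exact h2 hv)
  have n3 : x * v * x⁻¹ ≠ 1 := fun e => n1 (by simpa using e)
  have n4 : x * v * x⁻¹ ≠ P 1 0 := fun e => n2 (by
    rw [← D.cube v, e, h2 (e ▸ h3), h2 (e ▸ h3)])
  have e1 : P 1 0 * P 1 v0 = P 0 v0 := F.z_mul _ _
  have e2 : P 1 0 * P 0 v0 = P 1 v0 := F.z_mul _ _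
  have n5 : x * v * x⁻¹ = P 1 0 * v := by
    rcases F.mem_V.1 (hA hv) with t | t | t | t <;> rcases F.mem_V.1 (hA h3) with u | u | u | u <;>
      simp_all
  have := h2 ((mul_mem_cancel_right hv).1 (n5 ▸ h3))
  refine ne (D.fix_of_sq ?_)
  calc _ = x * (P 1 0 * v) * x⁻¹ := by rw [← n5]
    _ = x * P 1 0 * x⁻¹ * (x * v * x⁻¹) := by group
    _ = v := by rw [this, n5, ← mul_assoc, F.z_sq, one_mul]

include hy hS hH

theorem not_small : ¬ ∀ e a, P e a ∈ H → V12 a := fun hv => by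
  have y0 := F.y_H0 hy D.y23
  have yH := D.ix.le D.yK
  have c1 : ∀ r ∈ R, r * y = y * r → r ∈ R ⊓ F.lf T0S := fun r hr t => by
    obtain ⟨d, u⟩ := D.ov_S F hS (D.memR.1 hr).1
    obtain ⟨e, a, rfl, v⟩ := F.of_comm hy u t
    exact ⟨hr, F.mem_lf.2 (v (hv e a (D.RH hr)).2)⟩
  have c2 : ∀ v ∈ R ⊓ F.lf T0S, x * v * x⁻¹ ∈ R ⊓ F.lf T0S := fun v h => c1 _ (D.conjR h.1) (by
    calc _ = x * (v * y) * x⁻¹ := by rw [mul_assoc, (show Commute x y from D.xy).inv_left.eq]; group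
      _ = _ := by rw [F.V_comm y0 h.2, ← mul_assoc, D.xy]; group)
  have c3 := D.cent_V F inf_le_right c2 fun hz => by
    obtain ⟨e, a, h1, h2⟩ := D.exists_u F hS hH
    obtain ⟨g, t⟩ := D.ov F (D.ix.le (D.xu _ h1 h2))
    have k1 : Commute (P 1 0) (x * P e a * (x * P e a)) := F.z_comm t
    have k2 : Commute (P 1 0) (P e a) := F.z_comm (F.mem e a)
    have k3 : Commute (P 1 0) (x⁻¹ * P e a * x⁻¹⁻¹) := by
      have : Commute _ _ := F.W_comm (F.V_le_W (c2 _ hz).2) (F.mem_lf.2 (hv e a h1) : P e a ∈ _)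
      simpa [mul_assoc] using this.conj x⁻¹
    have := (k3.mul_right k2).mul_right k1.inv_right
    rw [D.inv_conj, show x * (x * P e a * x⁻¹) * x⁻¹ * P e a * (x * P e a * (x * P e a))⁻¹ =
      x * (x * P e a * (x * x * x)⁻¹ * (P e a)⁻¹ * x⁻¹) by group, D.x3] at this
    exact mul_inv_eq_iff_eq_mul.2 (by simpa using this.symm.eq)
  have y1 : ∀ {U : AddSubgroup LL}, (∀ a ∈ U, csm Sh a ∈ U) → ∀ s ∈ R ⊓ F.lf U, y * s * y⁻¹ ∈ R ⊓ F.lf U :=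
    fun hU s t => ⟨D.nrmR yH t.1, F.conj_lf hU hy t.2⟩
  have le : R ⊓ F.lf T0S ≤ R ⊓ F.lf V12S := inf_le_inf_left _ F.V_le_W
  refine D.nc (D.step le_rfl inf_le_left (D.idxR F hS hH (U := V12S) fun e a t => hv e a (D.RH t))
    (fun _ => D.conjR) (fun _ => D.nrmR yH) (y1 fun _ => v12_csm Sh_mem) (fun s t u => le (c1 s t u)) ?_)
  by_cases c4 : ∀ e a, P e a ∈ R → T0 a
  · rintro _ ⟨t, e, a, -, rfl⟩
    exact c3 _ ⟨t, F.mem_lf.2 (c4 e a t)⟩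
  obtain ⟨e, a, h1, h2⟩ : ∃ e a, P e a ∈ R ∧ ¬ T0 a := by simpa using c4
  have h3 := hv e a (D.RH h1)
  refine D.step inf_le_left le (idxW F fun b => (D.mi F hS hH fun h t _ => D.nrmR (D.ix.le t)).v12 ⟨e, h1⟩ h3
    fun t => h2 (t0_iff.2 ⟨h3.1, t⟩)) ?_ (y1 fun _ => v12_csm Sh_mem)
    (y1 fun a t => (T0.csm Sh_mem t).symm ▸ t) (fun s t => c1 s t.1) c3
  rintro _ ⟨t, f, b, hb, rfl⟩
  obtain ⟨d, u⟩ := D.ov_S F hS (D.memR.1 (D.conjR t)).1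
  obtain ⟨f', b', v⟩ := F.ker' u (sgC_pm.2 (hom_zero
    (F := fun a d => ∃ e, P e a ∈ R ∧ (x * P e a * x⁻¹, sgC d) ∈ Γ)
    ⟨0, F.zero ▸ one_mem _, by rw [F.zero, sgC_zero, mul_one, mul_inv_cancel]; exact one_mem _⟩
    (fun a b c d ⟨e, h, k⟩ ⟨f, h', k'⟩ => ⟨_, F.mul _ _ _ _ ▸ mul_mem h h', by
      rw [← F.mul, sgC_add, ← conj_mul]; exact Γ.mul_mem k k'⟩)
    (fun a b ⟨e, h, k⟩ => by
      obtain ⟨f, w⟩ := F.act _ _ hy e a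
      refine ⟨f, w ▸ D.nrmR yH h, ?_⟩
      have := conj_mem' hy k
      rwa [Sh_sgC, show y * (x * P e a * x⁻¹) * y⁻¹ = y * x * P e a * (y * x)⁻¹ by group, ← D.xy,
        show x * y * P e a * (x * y)⁻¹ = x * (y * P e a * y⁻¹) * x⁻¹ by group, w] at this)
    (fun a b ⟨e, h, k⟩ w => by
      obtain ⟨-, e', a', -, q⟩ := c2 _ ⟨h, F.mem_lf.2 w⟩
      exact sgC_pm.1 (F.pm_of (q ▸ k))) ⟨f, t, u⟩ hb))
  exact ⟨D.conjR t, f', b', hv _ _ (v ▸ D.RH (D.conjR t)), v⟩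

theorem big : H = pre Γ Mon ∧ K = H0 Γ P ∧ R = OO Γ P := by
  obtain ⟨e1, a1, h1, h2⟩ : ∃ e a, P e a ∈ H ∧ ¬ V12 a := by simpa using D.not_small F hy hS hH
  have hK := D.ix.le
  have U1 := fun b => (D.mi F hS hH (A := H) fun h t a u =>
    mul_mem (mul_mem (hK t) u) (inv_mem (hK t))).even ⟨e1, h1⟩ h2 (x := b)
  have z : P 1 0 ∈ K := by
    obtain ⟨a, b, ha, hb, k⟩ := exists_pol_even
    obtain ⟨e, t⟩ := U1 a ha
    obtain ⟨f, u⟩ := U1 b hb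
    have := D.ix.comm' t u
    rwa [F.conj, k, ← F.z_mul, mul_inv_cancel_right] at this
  have sg : ∀ {A : Subgroup G}, K ≤ A → ∀ {e a}, P e a ∈ A → ∀ f, P f a ∈ A := fun hA e a t f => by
    by_cases u : f = e
    · rwa [u]
    · rw [z2_ne u, ← F.z_mul]; exact mul_mem (hA z) t
  have U2 : ∀ e a, Ev0 a → P e a ∈ K := fun e a ha => by
    obtain ⟨d, hd⟩ := exists_not_d0
    have hw : Ev0 (d, 0) := zero_dotProduct _
    obtain ⟨f, t⟩ := U1 _ hw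
    obtain ⟨f', u⟩ := F.comm_mem hy f (d, 0)
    obtain ⟨f'', v⟩ := (D.mi F hS hH (A := K) fun h t a u => mul_mem (mul_mem t u) (inv_mem t)).even
      ⟨_, u ▸ D.ix.comm' (hK D.yK) t⟩ (fun k => hd (fix_sh ((D0.add (fst_csm hw 0 sh) k.1).of_eq (by
        rw [Prod.fst_add, ← Sh_eq, add_add_add_comm, cd_add_self, zero_add])))) ha
    exact sg le_rfl v e
  obtain ⟨e0, a0, u1, u2⟩ := D.exists_u F hS hH
  have u3 : ¬ Ev0 a0 := fun t => u2 (U2 _ _ t)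
  have U3 : ∀ e a, P e a ∈ H := fun e a => by
    by_cases ha : Ev0 a
    · exact hK (U2 e a ha)
    · have := mul_mem u1 (hK (U2 0 _ (ev0_add_of_not u3 ha)))
      rw [F.mul, ll_cancel] at this
      exact sg hK this e
  have E1 : H = pre Γ Mon := le_antisymm (fun h t => let ⟨g, u⟩ := D.ov F t; ⟨g, hH ▸ ⟨h, t, u⟩, u⟩)
    fun c ⟨g, hg, t⟩ => by
      obtain ⟨h, hh, u⟩ : g ∈ img Γ H := hH ▸ hg
      obtain ⟨e, a, rfl⟩ := F.eq_mul u t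
      exact mul_mem hh (U3 e a)
  have l0 : H0 Γ P ≤ H := fun h t => let ⟨g, u⟩ := (mem_H0.1 t).1; E1 ▸ ⟨g, F.mon_of t u, u⟩
  have l1 : H0 Γ P ≤ K := (F.perf (B := H0 Γ P ⊓ K) ⟨inf_le_left, fun a ha b hb h1 h2 => ⟨mul_mem ha hb,
    D.ix.mul _ (l0 ha) _ (l0 hb) (fun t => h1 ⟨ha, t⟩) fun t => h2 ⟨hb, t⟩⟩⟩).trans inf_le_right
  have l2 : K ≤ H0 Γ P := fun h t => by
    obtain ⟨g, hg, u⟩ := E1 ▸ hK t
    obtain ⟨c, hc, v⟩ := F.exists_H0 hg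
    obtain ⟨e, a, rfl⟩ := F.eq_mul v u
    refine mul_mem hc (F.P_H0.2 (by_contra fun ha => u2 ?_))
    have := mul_mem ((mul_mem_cancel_left (l1 hc)).1 t) (U2 0 _ (ev0_add_of_not ha u3))
    rw [F.mul, ll_cancel] at this
    exact sg le_rfl this _
  refine ⟨E1, le_antisymm l2 l1, le_antisymm (fun r t => mem_OO.2 ⟨D.ov_S F hS (D.memR.1 t).1,
    (mem_H0.1 (l2 (D.RK t))).2⟩) fun o t => ?_⟩
  obtain ⟨d, u⟩ := (mem_OO.1 t).1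
  obtain ⟨r, hr, v⟩ := D.exists_R F hS hH d
  obtain ⟨e, a, rfl⟩ := F.eq_mul v u
  exact mul_mem hr (D.P_R F ((mul_mem_cancel_left (D.RK hr)).1 (l1 (OO_le t))))

end ND

theorem conj_V (F : Fr Γ P) (D : ND C H (H0 Γ P) (OO Γ P) S x y) (hy : (y, Sh) ∈ Γ) :
    ∀ v ∈ F.lf T0S, x * v * x⁻¹ ∈ F.lf T0S := fun v h =>
  F.V_of_comm hy (D.conjR (F.Q_le_OO (F.W_le_Q (F.V_le_W h)))) (by
    rw [show y * (x * v * x⁻¹) * y⁻¹ = y * x * v * (y * x)⁻¹ by group, ← D.xy, mul_assoc x, ← F.V_comm D.yK h]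
    simp [mul_assoc])

theorem tri_of (F : Fr Γ P) (D : ND C (pre Γ Mon) (H0 Γ P) (OO Γ P) S x y) (hy : (y, Sh) ∈ Γ)
    (h : x * P 1 0 * x⁻¹ = P 1 v0) : Tri F x y := by
  have ne : P 1 v0 ≠ P 1 0 := fun u => om_ne_zero (congrArg Prod.fst (F.inj u).2)
  refine ⟨D.x3, h, ?_, D.xK, hy, D.yK, by rw [D.xy, mul_inv_cancel_right], fun e a ha =>
    D.xu _ ⟨1, one_mem _, F.mem e a⟩ (mt F.P_H0.1 ha)⟩
  rcases F.mem_V.1 (conj_V F D hy _ (F.mem_lf.2 t0_v0 : P 1 v0 ∈ _)) with u | u | u | u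
  · exact (F.z_ne (by simpa [← h] using u)).elim
  · exact (ne (h.symm.trans (D.fix_of_sq (h ▸ u)))).elim
  · exact (ne (by simpa using u.trans h.symm)).elim
  · exact u

theorem deg (F : Fr Γ P) (D : ND (pre Γ ⊤) H K R S x y) (hy : (y, Sh) ∈ Γ) (L1 : ¬ ∀ r ∈ S, (r, 1) ∈ Γ) :
    H = pre Γ Mon ∧ (Tri F x y ∨ Tri F x⁻¹ y) := by
  obtain ⟨hS, hH⟩ := D.img_eq F hy L1
  obtain ⟨rfl, rfl, rfl⟩ := D.big F hy hS hH
  have c1 := conj_V F D hy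
  refine ⟨rfl, ?_⟩
  rcases F.mem_V.1 (c1 _ (F.mem_lf.2 t0_zero : P 1 0 ∈ _)) with u | u | u | u
  · exact (F.z_ne (by simpa using u)).elim
  · have c2 : ∀ v ∈ OO Γ P, v * y = y * v → v ∈ F.lf T0S := fun v t w =>
      F.V_of_comm hy t (by rw [← w]; simp)
    have c3 : ∀ w ∈ F.lf V12S, x * w * x⁻¹ ∈ F.lf V12S := fun w t =>
      (F.W_iff (D.conjR (F.Q_le_OO (F.W_le_Q t)))).2 fun o ho => by
        have := c1 _ ((F.W_iff (F.Q_le_OO (F.W_le_Q t))).1 t _ (D.inv.conjR ho))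
        simpa [mul_assoc] using this
    have c4 : ∀ w ∈ F.lf EvS, x * w * x⁻¹ ∈ F.lf EvS := fun w t =>
      (F.Q_iff (D.conjR (F.Q_le_OO t))).2 fun o ho => by
        have := (F.Q_iff (F.Q_le_OO t)).1 t _ (D.inv_conj o ▸ c3 _ (c3 _ ho))
        rw [show x * w * x⁻¹ * o * (x * w * x⁻¹)⁻¹ * o⁻¹ =
          x * (w * (x⁻¹ * o * x⁻¹⁻¹) * w⁻¹ * (x⁻¹ * o * x⁻¹⁻¹)⁻¹) * x⁻¹ by group]
        exact this.imp (fun v => by rw [v, mul_one, mul_inv_cancel]) fun v => by rw [v, u]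
    have l1 := F.W_le_Q.trans F.Q_le_OO
    refine (D.nc (D.step le_rfl F.Q_le_OO ?_ (fun _ => D.conjR) (fun _ => F.conj_OO D.yK)
      (fun _ => F.conj_Q D.yK) (fun s t v => F.W_le_Q (F.V_le_W (c2 s t v))) (D.step F.Q_le_OO F.W_le_Q (idxQ F) c4
      (fun _ => F.conj_Q D.yK) (fun _ => F.conj_W D.yK) (fun s t v => F.V_le_W (c2 s (F.Q_le_OO t) v))
      (D.step l1 F.V_le_W ?_ c3 (fun _ => F.conj_W D.yK) (fun s t => by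
        rwa [← F.V_comm D.yK t, mul_inv_cancel_right]) (fun s t => c2 s (l1 t))
        (D.cent_V F le_rfl c1 fun _ => u))))).elim
    · simpa [inf_of_le_right F.Q_le_OO] using D.idxR F hS hH (U := EvS) fun e a => F.P_OO.1
    · simpa using idxW F (A := ⊤) fun _ _ => ⟨0, trivial⟩
  · exact Or.inl (tri_of F D hy u)
  · refine Or.inr (tri_of F D.inv hy ?_)
    have ne : P 0 v0 ≠ P 1 0 := fun u => om_ne_zero (congrArg Prod.fst (F.inj u).2)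
    rw [D.inv_conj, u]
    rcases F.mem_V.1 (c1 _ (F.mem_lf.2 t0_v0 : P 0 v0 ∈ _)) with v | v | v | v
    · exact (F.z_ne (by simpa [← u] using v)).elim
    · exact (ne (u.symm.trans (D.fix_of_sq (u ▸ v)))).elim
    · exact v
    · exact (ne (by simpa using v.trans u.symm)).elim

end Cfsg.Agent.Gr.Am
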